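import Mathlib
import Cfsg.Agent.Lib.Helper20.Zass.FinC1
import Cfsg.Agent.Lib.Helper45.Zass.FinCDefs
import Cfsg.Agent.Lib.Helper63.Zass.FinA

/-!
# S0690 (ZASS), package [FIN-C1] at the exact type `Helper45.Zass.PkgFinC1`
(`pkgFinC1` of `FinC1.lean` with its [FIN-A] hypothesis discharged by `Helper63.Zass.pkgFinA'`).
-/

set_option autoImplicit false

namespace Cfsg.Agent.Lib.Helper20.Zass

universe u

/-- [FIN-C1] -/
theorem pkgFinC1_final : Cfsg.Agent.Lib.Helper45.Zass.PkgFinC1.{u} :=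
  pkgFinC1 Cfsg.Agent.Lib.Helper63.Zass.pkgFinA'

end Cfsg.Agent.Lib.Helper20.Zass
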